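import Cfsg.Agent.Lib.OO.BasicD
import Cfsg.Agent.Lib.Coprime.Generate
import Cfsg.Agent.Lib.Perm.FourGroup

/-! # Four-fold transitive groups with odd four-point stabilizer, I -/

set_option autoImplicit false
set_option linter.unusedSectionVars false

namespace Cfsg.Agent.Hall4

open Equiv Subgroup Cfsg.Agent.OO
open scoped Pointwise

variable {α : Type*} [Fintype α] [DecidableEq α]

/-- `g` induces `σ` on the four points `y` -/
def Ind (y : Fin 4 ↪ α) (g : Perm α) (σ : Perm (Fin 4)) : Prop := ∀ i, g (y i) = y (σ i)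

variable {y : Fin 4 ↪ α} {g h : Perm α} {σ ρ : Perm (Fin 4)} {G X : Subgroup (Perm α)}

theorem Ind.mul (h1 : Ind y g σ) (h2 : Ind y h ρ) : Ind y (g * h) (σ * ρ) := fun i => by
  rw [Perm.mul_apply, h2, h1, Perm.mul_apply]

theorem Ind.inv (h1 : Ind y g σ) : Ind y g⁻¹ σ⁻¹ := fun i => by
  rw [Perm.inv_eq_iff_eq, h1]; simp

theorem ind_one : Ind y 1 1 := fun _ => rfl

theorem Ind.pow (h1 : Ind y g σ) (n : ℕ) : Ind y (g ^ n) (σ ^ n) := by
  induction n with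
  | zero => simpa using ind_one
  | succ n ih => rw [pow_succ, pow_succ]; exact ih.mul h1

theorem Ind.of_eq (h1 : Ind y g σ) (e : σ = ρ) : Ind y g ρ := e ▸ h1

/-- elements of `X` inducing an element of `D` -/
def YD (X : Subgroup (Perm α)) (y : Fin 4 ↪ α) (D : Subgroup (Perm (Fin 4))) : Subgroup (Perm α) where
  carrier := {g | g ∈ X ∧ ∃ σ ∈ D, Ind y g σ}
  one_mem' := ⟨X.one_mem, 1, D.one_mem, ind_one⟩
  mul_mem' := fun ⟨a, σ, b, c⟩ ⟨a', σ', b', c'⟩ => ⟨X.mul_mem a a', _, D.mul_mem b b', c.mul c'⟩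
  inv_mem' := fun ⟨a, σ, b, c⟩ => ⟨X.inv_mem a, _, D.inv_mem b, c.inv⟩

/-- pointwise stabilizer -/
def St (X : Subgroup (Perm α)) (y : Fin 4 ↪ α) : Subgroup (Perm α) where
  carrier := {g | g ∈ X ∧ Ind y g 1}
  one_mem' := ⟨X.one_mem, ind_one⟩
  mul_mem' := fun ⟨a, c⟩ ⟨a', c'⟩ => ⟨X.mul_mem a a', by simpa using c.mul c'⟩
  inv_mem' := fun ⟨a, c⟩ => ⟨X.inv_mem a, by simpa using c.inv⟩

theorem St_mono (h : X ≤ G) : St X y ≤ St G y := fun _ hg => ⟨h hg.1, hg.2⟩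

theorem mem_norm_St (hg : g ∈ X) (h1 : Ind y g σ) : g ∈ 𝐍(St X y) :=
  mem_norm_of_conj_mem fun _ hx => ⟨X.mul_mem (X.mul_mem hg hx.1) (X.inv_mem hg),
    ((h1.mul hx.2).mul h1.inv).of_eq (by simp)⟩

/-- the hypothesis -/
structure Hyp (G : Subgroup (Perm α)) : Prop where
  tr : ∀ y y' : Fin 4 ↪ α, ∃ g ∈ G, ∀ i, g (y i) = y' i
  odd : ∀ y : Fin 4 ↪ α, Odd ♯(St G y)

/-- `X` induces the full symmetric group on `y` -/
def Full (X : Subgroup (Perm α)) (y : Fin 4 ↪ α) : Prop := ∀ σ, ∃ g ∈ X, Ind y g σ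

theorem Hyp.full (H : Hyp G) (y : Fin 4 ↪ α) : Full G y := fun σ =>
  H.tr y (σ.toEmbedding.trans y)

theorem Hyp.odd_of_le (H : Hyp G) (hX : X ≤ G) (y : Fin 4 ↪ α) : Odd ♯(St X y) :=
  (H.odd y).of_dvd_nat (card_dvd (St_mono hX))

theorem Hyp.eq_one (H : Hyp G) (hg : g ∈ G) {k : ℕ} (h2 : g ^ 2 ^ k = 1) (h1 : Ind y g 1) :
    g = 1 := by
  have h3 := (H.odd y).of_dvd_nat (OO.orderOf_dvd_card (H := St G y) ⟨hg, h1⟩)
  obtain ⟨j, -, hj⟩ := (Nat.dvd_prime_pow Nat.prime_two).1 (orderOf_dvd_of_pow_eq_one h2)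
  rcases j with _ | j
  · exact orderOf_eq_one_iff.1 hj
  · rw [hj] at h3
    exact absurd h3 (by simp [Nat.odd_pow_iff])

theorem Hyp.eq_of_ind (H : Hyp G) {T : Subgroup (Perm α)} (hT : T ≤ G) (h2 : IsPGroup 2 T)
    (hg : g ∈ T) (hh : h ∈ T) (h1 : Ind y g σ) (h1' : Ind y h σ) : g = h := by
  obtain ⟨k, hk⟩ := h2 ⟨g * h⁻¹, T.mul_mem hg (T.inv_mem hh)⟩
  exact mul_inv_eq_one.1 (H.eq_one (hT (T.mul_mem hg (T.inv_mem hh))) (congrArg Subtype.val hk)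
    ((h1.mul h1'.inv).of_eq (mul_inv_cancel σ)))

/-- four distinct points -/
def e4 {a b c d : α} (h : [a, b, c, d].Nodup) : Fin 4 ↪ α :=
  ⟨![a, b, c, d], by
    simp only [List.nodup_cons, List.mem_cons, List.not_mem_nil, or_false, not_or] at h
    intro i j
    fin_cases i <;> fin_cases j <;> simp_all [eq_comm]⟩

theorem Hyp.fix4 (H : Hyp G) (hg : g ∈ G) (h2 : g * g = 1) {a b c d : α} (h : [a, b, c, d].Nodup)
    (ha : g a = a) (hb : g b = b) (hc : g c = c) (hd : g d = d) : g = 1 :=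
  H.eq_one (y := e4 h) hg (k := 1) (by rwa [pow_one, pow_two]) fun i => by
    fin_cases i <;> assumption

theorem Hyp.conj_two (H : Hyp G) (hX : X ≤ G) {W W' : Subgroup (Perm α)} (hW : W ≤ X)
    (hW' : W' ≤ X) (h2 : IsPGroup 2 W) (h2' : IsPGroup 2 W') (hi : ∀ w ∈ W, ∃ σ, Ind y w σ)
    (hi' : ∀ w' ∈ W', ∃ w ∈ W, ∃ σ, Ind y w σ ∧ Ind y w' σ) :
    ∃ h ∈ St X y, ∀ w' ∈ W', ∀ w ∈ W, ∀ σ, Ind y w σ → Ind y w' σ → h * w' * h⁻¹ = w := by
  have hn : W ≤ 𝐍(St X y) := fun w hw => (hi w hw).elim fun σ hσ => mem_norm_St (hW hw) hσ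
  have hS : Syl 2 W (St X y ⊔ W) := ⟨le_sup_right, h2, by
    rw [relIndex_sup_eq (Or.inr hn)]
    exact fun h => (Nat.not_even_iff_odd.2 (H.odd_of_le hX y)) (even_iff_two_dvd.2
      (h.trans (relIndex_dvd_card _ _)))⟩
  obtain ⟨g, hg, hle⟩ := hS.exists_conj_le (Q := W') (fun w' hw' => by
    obtain ⟨w, hw, σ, h3, h4⟩ := hi' w' hw'
    have : w' = w' * w⁻¹ * w := by group
    rw [this]
    exact mul_mem (mem_sup_left ⟨X.mul_mem (hW' hw') (X.inv_mem (hW hw)),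
      (h4.mul h3.inv).of_eq (mul_inv_cancel σ)⟩) (mem_sup_right hw)) h2'
  rw [sup_comm, mem_sup_norm_right hn] at hg
  obtain ⟨w0, hw0, h, hh, rfl⟩ := hg
  refine ⟨h, hh, fun w' hw' w hw σ h3 h4 => ?_⟩
  have h5 : h * w' * h⁻¹ ∈ W := by
    have := W.mul_mem (W.mul_mem (W.inv_mem hw0) (hle (conj_mem_conj hw'))) hw0
    rwa [show w0⁻¹ * (w0 * h * w' * (w0 * h)⁻¹) * w0 = h * w' * h⁻¹ by group] at this
  exact H.eq_of_ind (hW.trans hX) h2 h5 hw (((hh.2.mul h4).mul hh.2.inv).of_eq (by simp)) h3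

theorem Hyp.exists_two (H : Hyp G) (hX : X ≤ G) (hF : Full X y) {D : Subgroup (Perm (Fin 4))}
    (hD : ∀ σ ∈ D, σ ^ 4 = 1) : ∃ T ≤ X, IsPGroup 2 T ∧ ∀ σ ∈ D, ∃ t ∈ T, Ind y t σ := by
  obtain ⟨T, hT⟩ := exists_syl 2 (YD X y D)
  refine ⟨T, fun t ht => (hT.le ht).1, hT.isPGroup, fun σ hσ => ?_⟩
  have hle : St X y ≤ YD X y D := fun g hg => ⟨hg.1, 1, D.one_mem, hg.2⟩
  have hn : YD X y D ≤ 𝐍(St X y) := fun g ⟨hg, σ, _, h⟩ => mem_norm_St hg h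
  have : ((St X y).subgroupOf (YD X y D)).Normal := (show St X y ⊴ YD X y D from ⟨hle, hn⟩).subgroupOf
  have hq : IsPGroup 2 (YD X y D ⧸ (St X y).subgroupOf (YD X y D)) := by
    intro q
    obtain ⟨⟨g, hg, σ, hσ, h⟩, rfl⟩ := QuotientGroup.mk_surjective q
    refine ⟨2, ?_⟩
    rw [← QuotientGroup.mk_pow, QuotientGroup.eq_one_iff]
    exact ⟨X.pow_mem hg _, (h.pow 4).of_eq (hD σ hσ)⟩
  obtain ⟨k, hk⟩ := IsPGroup.iff_card.1 hq
  have hP := IsProd.of_coprime_relIndex hT.le hle (by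
    rw [show (St X y).relIndex (YD X y D) = 2 ^ k from hk]
    exact ((Nat.Prime.coprime_iff_not_dvd Nat.prime_two).2 hT.not_dvd).symm.pow_right k)
  obtain ⟨g, hg, h⟩ := hF σ
  obtain ⟨t, ht, n, hn, rfl⟩ := hP.mem_iff.1 ⟨hg, σ, hσ, h⟩
  exact ⟨t, ht, by simpa using h.mul hn.2.inv⟩

/-- the four-group generated by commuting involutions -/
def V4 {Γ : Type*} [Group Γ] (a b : Γ) (ha : a * a = 1) (hb : b * b = 1) (hab : a * b = b * a) :
    Subgroup Γ where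
  carrier := {g | g = 1 ∨ g = a ∨ g = b ∨ g = a * b}
  one_mem' := Or.inl rfl
  mul_mem' := by
    have h1 : ∀ x, a * (a * x) = x := fun x => by rw [← mul_assoc, ha, one_mul]
    have h2 : ∀ x, b * (a * x) = a * (b * x) := fun x => by rw [← mul_assoc, ← hab, mul_assoc]
    rintro _ _ (rfl | rfl | rfl | rfl) (rfl | rfl | rfl | rfl) <;>
      simp [mul_assoc, ha, hb, ← hab, h1, h2]
  inv_mem' := by
    have h1 : a⁻¹ = a := inv_eq_of_mul_eq_one_right ha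
    have h2 : b⁻¹ = b := inv_eq_of_mul_eq_one_right hb
    rintro _ (rfl | rfl | rfl | rfl) <;> simp [h1, h2, hab]

theorem V4_two {Γ : Type*} [Group Γ] {a b : Γ} (ha : a * a = 1) (hb : b * b = 1)
    (hab : a * b = b * a) : IsPGroup 2 (V4 a b ha hb hab) := by
  rintro ⟨g, hg⟩
  refine ⟨1, Subtype.ext ?_⟩
  change g ^ 2 ^ 1 = 1
  rw [pow_one, pow_two]
  rcases hg with rfl | rfl | rfl | rfl
  · simp
  · exact ha
  · exact hb
  · rw [mul_assoc, ← mul_assoc b, ← hab, mul_assoc, hb, mul_one, ha]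

theorem V4_le {Γ : Type*} [Group Γ] {a b : Γ} {ha : a * a = 1} {hb : b * b = 1}
    {hab : a * b = b * a} {K : Subgroup Γ} (h1 : a ∈ K) (h2 : b ∈ K) : V4 a b ha hb hab ≤ K := by
  rintro _ (rfl | rfl | rfl | rfl)
  exacts [K.one_mem, h1, h2, K.mul_mem h1 h2]

theorem le_of_V4 {Γ : Type*} [Group Γ] [Finite Γ] {a b : Γ} (ha : a * a = 1) (hb : b * b = 1)
    (hab : a * b = b * a) (h1 : a ≠ 1) (h2 : b ≠ 1) (h3 : a ≠ b) {P K : Subgroup Γ}
    (hP : Odd ♯P) (haP : a ∈ 𝐍(P)) (hbP : b ∈ 𝐍(P)) (ka : P ⊓ 𝐂[a] ≤ K) (kb : P ⊓ 𝐂[b] ≤ K)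
    (kab : P ⊓ 𝐂[a * b] ≤ K) : P ≤ K := by
  refine Coprime.le_of_forall_centralizer_le (A := V4 a b ha hb hab) ?_ ?_ (V4_le haP hbP) ?_ ?_
  · refine ⟨⟨fun u v => Subtype.ext ?_⟩⟩
    have h1 : ∀ x, a * (a * x) = x := fun x => by rw [← mul_assoc, ha, one_mul]
    have h2 : ∀ x, b * (a * x) = a * (b * x) := fun x => by rw [← mul_assoc, ← hab, mul_assoc]
    obtain ⟨u, rfl | rfl | rfl | rfl⟩ := u <;> obtain ⟨v, rfl | rfl | rfl | rfl⟩ := v <;>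
      simp [mul_assoc, ha, hb, ← hab, h1, h2]
  · rintro ⟨⟨g, hg⟩⟩
    have hg2 : g ^ 2 = 1 := by
      have := V4_two ha hb hab
      obtain ⟨g, rfl | rfl | rfl | rfl⟩ := g <;> refine Subtype.ext ?_
      · simp
      · simpa [pow_two] using ha
      · simpa [pow_two] using hb
      · change (a * b) ^ 2 = 1
        rw [pow_two, mul_assoc, ← mul_assoc b, ← hab, mul_assoc, hb, mul_one, ha]
    have key : ∀ u : V4 a b ha hb hab, u = 1 ∨ u = g := fun u => by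
      obtain ⟨n, rfl⟩ := hg u
      rcases Int.even_or_odd' n with ⟨m, rfl | rfl⟩
      · left; simp only; rw [zpow_mul, zpow_ofNat, hg2, one_zpow]
      · right; simp only; rw [zpow_add, zpow_mul, zpow_ofNat, hg2, one_zpow, one_mul, zpow_one]
    have e1 := (key ⟨a, Or.inr (Or.inl rfl)⟩).resolve_left fun h => h1 (congrArg Subtype.val h)
    have e2 := (key ⟨b, Or.inr (Or.inr (Or.inl rfl))⟩).resolve_left fun h =>
      h2 (congrArg Subtype.val h)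
    exact h3 (congrArg Subtype.val (e1.trans e2.symm))
  · obtain ⟨k, hk⟩ := IsPGroup.iff_card.1 (V4_two ha hb hab)
    rw [hk]
    exact (Nat.coprime_two_left.2 hP).pow_left k
  · rintro _ (rfl | rfl | rfl | rfl) h
    exacts [absurd rfl h, ka, kb, kab]

/-- regular triple -/
structure RT (X : Subgroup (Perm α)) (a b : Perm α) (i : α) : Prop where
  ma : a ∈ X
  mb : b ∈ X
  ha : a * a = 1
  hb : b * b = 1
  hab : a * b = b * a
  na : a i ≠ i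
  nb : b i ≠ i
  nab : a (b i) ≠ i

variable {a b a' b' : Perm α} {i i' : α}

theorem RT.aa (h : RT X a b i) (z : α) : a (a z) = z := by
  rw [← Perm.mul_apply, h.ha, Perm.one_apply]

theorem RT.bb (h : RT X a b i) (z : α) : b (b z) = z := by
  rw [← Perm.mul_apply, h.hb, Perm.one_apply]

theorem RT.ba (h : RT X a b i) (z : α) : b (a z) = a (b z) := by
  rw [← Perm.mul_apply, ← h.hab, Perm.mul_apply]

theorem RT.nodup (h : RT X a b i) : [i, a i, b i, a (b i)].Nodup := by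
  have h1 : a i ≠ b i := fun e => h.nab (by rw [← e, h.aa])
  have h2 : a i ≠ a (b i) := fun e => h.nb (a.injective e).symm
  have h3 : b i ≠ a (b i) := fun e => h.na (b.injective (by rw [h.ba, ← e]))
  simp [h.na.symm, h.nb.symm, h.nab.symm, h1, h2, h3]

theorem RT.symm (h : RT X a b i) : RT X b a i :=
  ⟨h.mb, h.ma, h.hb, h.ha, h.hab.symm, h.nb, h.na, h.ba i ▸ h.nab⟩

theorem RT.mul (h : RT X a b i) : RT X (a * b) a i :=
  ⟨X.mul_mem h.ma h.mb, h.ma,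
    by rw [mul_assoc, ← mul_assoc b, ← h.hab, mul_assoc, h.hb, mul_one, h.ha], h.ha,
    by rw [mul_assoc, ← h.hab], h.nab, h.na, by rw [Perm.mul_apply, h.ba, h.aa]; exact h.nb⟩

theorem RT.mono (h : RT X a b i) (hX : X ≤ G) : RT G a b i :=
  ⟨hX h.ma, hX h.mb, h.ha, h.hb, h.hab, h.na, h.nb, h.nab⟩

theorem RT.ne_one (h : RT X a b i) : a ≠ 1 := fun e => h.na (by rw [e]; rfl)

theorem RT.ind_a (h : RT X a b i) : Ind (e4 h.nodup) a (swap 0 1 * swap 2 3) := fun j => by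
  fin_cases j
  exacts [rfl, h.aa i, rfl, h.aa _]

theorem RT.ind_b (h : RT X a b i) : Ind (e4 h.nodup) b (swap 0 2 * swap 1 3) := fun j => by
  fin_cases j
  exacts [rfl, h.ba i, h.bb _, (h.ba _).trans (congrArg a (h.bb i))]

theorem Hyp.conj_RT (H : Hyp G) (hX : X ≤ G) (h : RT X a b i) (h' : RT X a' b' i')
    (hg : ∃ g ∈ X, ∀ j, g (e4 h.nodup j) = e4 h'.nodup j) :
    ∃ g ∈ X, g * a * g⁻¹ = a' ∧ g * b * g⁻¹ = b' ∧ g i = i' := by
  obtain ⟨g, hg, e⟩ := hg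
  have hc : ∀ {u σ}, Ind (e4 h.nodup) u σ → Ind (e4 h'.nodup) (g * u * g⁻¹) σ := by
    intro u σ hu j
    rw [← e j, Perm.mul_apply, Perm.mul_apply, Perm.inv_def, symm_apply_apply, hu, e]
  have hm : ∀ {u}, u ∈ X → g * u * g⁻¹ ∈ X := fun hu => X.mul_mem (X.mul_mem hg hu) (X.inv_mem hg)
  have q1 : g * a * g⁻¹ * (g * a * g⁻¹) = 1 := by rw [conj_mul, h.ha]; simp
  have q2 : g * b * g⁻¹ * (g * b * g⁻¹) = 1 := by rw [conj_mul, h.hb]; simp
  have q3 : g * a * g⁻¹ * (g * b * g⁻¹) = g * b * g⁻¹ * (g * a * g⁻¹) := by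
    rw [conj_mul, conj_mul, h.hab]
  obtain ⟨k, hk, hw⟩ := H.conj_two (y := e4 h'.nodup) hX (W := V4 a' b' h'.ha h'.hb h'.hab)
    (W' := V4 _ _ q1 q2 q3) (V4_le h'.ma h'.mb) (V4_le (hm h.ma) (hm h.mb)) (V4_two _ _ _)
    (V4_two _ _ _) (by
      rintro _ (rfl | rfl | rfl | rfl)
      exacts [⟨_, ind_one⟩, ⟨_, h'.ind_a⟩, ⟨_, h'.ind_b⟩, ⟨_, h'.ind_a.mul h'.ind_b⟩]) (by
      rintro _ (rfl | rfl | rfl | rfl)
      exacts [⟨1, Or.inl rfl, _, ind_one, ind_one⟩,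
        ⟨a', Or.inr (Or.inl rfl), _, h'.ind_a, hc h.ind_a⟩,
        ⟨b', Or.inr (Or.inr (Or.inl rfl)), _, h'.ind_b, hc h.ind_b⟩,
        ⟨a' * b', Or.inr (Or.inr (Or.inr rfl)), _, h'.ind_a.mul h'.ind_b,
          (hc h.ind_a).mul (hc h.ind_b)⟩])
  refine ⟨k * g, X.mul_mem hk.1 hg, ?_, ?_, ?_⟩
  · rw [← hw _ (Or.inr (Or.inl rfl)) _ (Or.inr (Or.inl rfl)) _ h'.ind_a (hc h.ind_a)]; group
  · rw [← hw _ (Or.inr (Or.inr (Or.inl rfl))) _ (Or.inr (Or.inr (Or.inl rfl))) _ h'.ind_b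
      (hc h.ind_b)]; group
  · rw [Perm.mul_apply, show g i = e4 h'.nodup 0 from e 0, hk.2 0]; rfl

/-- the dihedral configuration on four points -/
structure Cf (X : Subgroup (Perm α)) (y : Fin 4 ↪ α) (x x' b s : Perm α) : Prop where
  mx : x ∈ X
  mx' : x' ∈ X
  ms : s ∈ X
  ix : Ind y x (swap 2 3)
  ix' : Ind y x' (swap 0 1)
  ib : Ind y b (swap 0 2 * swap 1 3)
  hx : x * x = 1
  hx' : x' * x' = 1
  hxx : x * x' = x' * x
  rt : RT X (x * x') b (y 0)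
  xb : x * b * x⁻¹ = x * x' * b
  xb' : x' * b * x'⁻¹ = x * x' * b
  sa : s * (x * x') * s⁻¹ = b
  sb : s * b * s⁻¹ = x * x'

set_option maxRecDepth 100000 in
theorem pow_four_of_comm : ∀ σ : Perm (Fin 4),
    σ * (swap 0 1 * swap 2 3) = swap 0 1 * swap 2 3 * σ → σ ^ 4 = 1 := by
  decide

theorem Hyp.exists_cf (H : Hyp G) (hX : X ≤ G) (hF : Full X y) : ∃ x x' b s, Cf X y x x' b s := by
  obtain ⟨T, hTX, hT, h⟩ := H.exists_two hX hF (D := 𝐂[(swap 0 1 * swap 2 3 : Perm (Fin 4))])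
    (fun σ hσ => pow_four_of_comm σ (mem_cent1.1 hσ))
  obtain ⟨x, hx, ix⟩ := h (swap 2 3) (by rw [mem_cent1]; decide)
  obtain ⟨x', hx', ix'⟩ := h (swap 0 1) (by rw [mem_cent1]; decide)
  obtain ⟨b, hb, ib⟩ := h (swap 0 2 * swap 1 3) (by rw [mem_cent1]; decide)
  have E : ∀ {u v σ}, u ∈ T → v ∈ T → Ind y u σ → Ind y v σ → u = v :=
    fun h1 h2 h3 h4 => H.eq_of_ind (hTX.trans hX) hT h1 h2 h3 h4
  have ia := ix.mul ix'
  have ha := T.mul_mem hx hx'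
  have rt : RT X (x * x') b (y 0) := ⟨hTX ha, hTX hb,
    E (T.mul_mem ha ha) T.one_mem ((ia.mul ia).of_eq (by decide)) ind_one,
    E (T.mul_mem hb hb) T.one_mem ((ib.mul ib).of_eq (by decide)) ind_one,
    E (T.mul_mem ha hb) (T.mul_mem hb ha) ((ia.mul ib).of_eq (by decide)) (ib.mul ia),
    by rw [ia]; exact y.injective.ne (by decide), by rw [ib]; exact y.injective.ne (by decide),
    by rw [ib, ia]; exact y.injective.ne (by decide)⟩
  obtain ⟨s, hs, h1, h2, -⟩ := H.conj_RT hX rt rt.symm (by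
    obtain ⟨g, hg, ig⟩ := hF (swap 1 2)
    refine ⟨g, hg, fun j => ?_⟩
    fin_cases j
    · exact ig 0
    · change g ((x * x') (y 0)) = b (y 0)
      rw [ia, ib, ig]; rfl
    · change g (b (y 0)) = (x * x') (y 0)
      rw [ia, ib, ig]; rfl
    · change g ((x * x') (b (y 0))) = b ((x * x') (y 0))
      rw [ia, ib, ia, ib, ig]; rfl)
  exact ⟨x, x', b, s, hTX hx, hTX hx', hs, ix, ix', ib,
    E (T.mul_mem hx hx) T.one_mem ((ix.mul ix).of_eq (by decide)) ind_one,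
    E (T.mul_mem hx' hx') T.one_mem ((ix'.mul ix').of_eq (by decide)) ind_one,
    E ha (T.mul_mem hx' hx) (ia.of_eq (by decide)) (ix'.mul ix), rt,
    E (T.mul_mem (T.mul_mem hx hb) (T.inv_mem hx)) (T.mul_mem ha hb)
      (((ix.mul ib).mul ix.inv).of_eq (by decide)) (ia.mul ib),
    E (T.mul_mem (T.mul_mem hx' hb) (T.inv_mem hx')) (T.mul_mem ha hb)
      (((ix'.mul ib).mul ix'.inv).of_eq (by decide)) (ia.mul ib), h1, h2⟩

theorem Hyp.full_norm (H : Hyp G) {p : ℕ} [Fact p.Prime] {P : Subgroup (Perm α)}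
    (hP : Syl p P (St G y)) : Full (G ⊓ 𝐍(P)) y := fun σ => by
  obtain ⟨g, hg, ig⟩ := H.full y σ
  obtain ⟨h, hh, e⟩ := (hP.conj_of_norm (mem_norm_St hg ig)).exists_conj' hP
  rw [conj_conj] at e
  exact ⟨h * g, ⟨G.mul_mem hh.1 hg, conj_eq_self_iff.1 e.symm⟩, by simpa using hh.2.mul ig⟩

end Cfsg.Agent.Hall4
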