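import Cfsg.Agent.Lib.Perm.Hall4A
import Cfsg.Agent.Lib.OO.BasicE

/-! # Four-fold transitive groups with odd four-point stabilizer, II -/

set_option autoImplicit false
set_option linter.unusedSectionVars false

namespace Cfsg.Agent.Hall4

open Equiv Subgroup Cfsg.Agent.OO Finset
open scoped Pointwise Classical

variable {α : Type*} [Fintype α] [DecidableEq α]
variable {y : Fin 4 ↪ α} {g h u a b x x' s : Perm α} {G X P : Subgroup (Perm α)} {i z : α}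

/-- fixed points of an element -/
def Fx (g : Perm α) : Finset α := univ.filter fun z => g z = z

/-- fixed points of a subgroup -/
noncomputable def FP (P : Subgroup (Perm α)) : Finset α := univ.filter fun z => ∀ g ∈ P, g z = z

theorem mem_Fx : z ∈ Fx g ↔ g z = z := by simp [Fx]

theorem mem_FP : z ∈ FP P ↔ ∀ g ∈ P, g z = z := by simp [FP]

theorem exists_emb {S : Finset α} (h : 4 ≤ #S) : ∃ y : Fin 4 ↪ α, ∀ i, y i ∈ S := by
  obtain ⟨f⟩ : Nonempty (Fin 4 ↪ S) := Function.Embedding.nonempty_of_card_le (by simpa using h)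
  exact ⟨f.trans (Function.Embedding.subtype _), fun i => (f i).2⟩

theorem Hyp.card_Fx_le (H : Hyp G) (hg : g ∈ G) (h2 : g * g = 1) (h1 : g ≠ 1) : #(Fx g) ≤ 3 := by
  by_contra hn
  obtain ⟨y, hy⟩ := exists_emb (S := Fx g) (by omega)
  exact h1 (H.eq_one (y := y) hg (k := 1) (by rwa [pow_one, pow_two]) fun i => mem_Fx.1 (hy i))

theorem mem_Fx_conj : g z ∈ Fx (g * u * g⁻¹) ↔ z ∈ Fx u := by simp [mem_Fx]

theorem card_Fx_conj : #(Fx (g * u * g⁻¹)) = #(Fx u) := by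
  symm
  exact card_bij (fun z _ => g z) (fun z hz => mem_Fx_conj.2 hz) (fun _ _ _ _ h => g.injective h)
    fun z hz => ⟨g⁻¹ z, (mem_Fx_conj (g := g)).1 (by simpa using hz), by simp⟩

theorem Hyp.exists_ind (H : Hyp G) (h6 : 6 ≤ Fintype.card α) (hu : u ∈ G) (h2 : u * u = 1)
    (h1 : u ≠ 1) : ∃ y : Fin 4 ↪ α, Ind y u (swap 0 1 * swap 2 3) := by
  have uu : ∀ z, u (u z) = z := fun z => by rw [← Perm.mul_apply, h2, Perm.one_apply]
  have h3 := H.card_Fx_le hu h2 h1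
  have h4 : 3 ≤ #(Fx u)ᶜ := by rw [card_compl]; omega
  obtain ⟨i, hi⟩ : (Fx u)ᶜ.Nonempty := card_pos.1 (by omega)
  obtain ⟨j, hj, hj'⟩ := exists_mem_notMem_of_card_lt_card (s := {i, u i}) (t := (Fx u)ᶜ)
    (lt_of_le_of_lt card_le_two (by omega))
  simp only [mem_compl, mem_Fx, mem_insert, mem_singleton, not_or] at hi hj hj'
  have h5 : u j ≠ i := fun e => hj'.2 (by rw [← e, uu])
  have h6 : u j ≠ u i := fun e => hj'.1 (u.injective e)
  have hn : [i, u i, j, u j].Nodup := by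
    simp [Ne.symm hi, Ne.symm hj, Ne.symm hj'.1, Ne.symm hj'.2, h5.symm, h6.symm]
  refine ⟨e4 hn, fun k => ?_⟩
  fin_cases k
  exacts [rfl, uu i, rfl, uu j]

theorem Hyp.conj_inv (H : Hyp G) (h6 : 6 ≤ Fintype.card α) {u' : Perm α} (hu : u ∈ G)
    (h2 : u * u = 1) (h1 : u ≠ 1) (hu' : u' ∈ G) (h2' : u' * u' = 1) (h1' : u' ≠ 1) :
    ∃ g ∈ G, g * u * g⁻¹ = u' := by
  obtain ⟨y, hy⟩ := H.exists_ind h6 hu h2 h1
  obtain ⟨y', hy'⟩ := H.exists_ind h6 hu' h2' h1'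
  obtain ⟨g, hg, e⟩ := H.tr y y'
  have hc : Ind y' (g * u * g⁻¹) (swap 0 1 * swap 2 3) := fun j => by
    rw [← e j, Perm.mul_apply, Perm.mul_apply, Perm.inv_def, symm_apply_apply, hy, e]
  have q1 : g * u * g⁻¹ * (g * u * g⁻¹) = 1 := by rw [conj_mul, h2]; simp
  have hm := G.mul_mem (G.mul_mem hg hu) (G.inv_mem hg)
  obtain ⟨k, hk, hw⟩ := H.conj_two (y := y') le_rfl (W := V4 u' u' h2' h2' rfl)
    (W' := V4 _ _ q1 q1 rfl) (V4_le hu' hu') (V4_le hm hm) (V4_two _ _ _) (V4_two _ _ _) (by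
      rintro _ (rfl | rfl | rfl | rfl)
      exacts [⟨_, ind_one⟩, ⟨_, hy'⟩, ⟨_, hy'⟩, ⟨_, hy'.mul hy'⟩]) (by
      rintro _ (rfl | rfl | rfl | rfl)
      exacts [⟨1, Or.inl rfl, _, ind_one, ind_one⟩, ⟨u', Or.inr (Or.inl rfl), _, hy', hc⟩,
        ⟨u', Or.inr (Or.inl rfl), _, hy', hc⟩,
        ⟨u' * u', Or.inr (Or.inr (Or.inr rfl)), _, hy'.mul hy', hc.mul hc⟩])
  exact ⟨k * g, G.mul_mem hk.1 hg, by
    rw [← hw _ (Or.inr (Or.inl rfl)) _ (Or.inr (Or.inl rfl)) _ hy' hc]; group⟩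

theorem FP_modEq {p : ℕ} [Fact p.Prime] (hP : IsPGroup p P) :
    Fintype.card α ≡ #(FP P) [MOD p] := by
  have := hP.card_modEq_card_fixedPoints α
  rwa [Nat.card_eq_fintype_card, show Nat.card (MulAction.fixedPoints P α) = #(FP P) by
    rw [← Nat.card_eq_finsetCard]
    exact Nat.card_congr (Equiv.subtypeEquivRight fun z => by simp [mem_FP])] at this

theorem fix_of_odd (ho : Odd (orderOf g)) {S : Finset α} (hS : #S ≤ 2) (h : ∀ z ∈ S, g z ∈ S)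
    (hz : z ∈ S) : g z = z := by
  by_contra hn
  have e : {z, g z} = S := eq_of_subset_of_card_le (by
    simp [insert_subset_iff, hz, h z hz]) (by rw [card_pair (Ne.symm hn)]; exact hS)
  have h1 := h _ (h z hz)
  rw [← e, mem_insert, mem_singleton] at h1
  have h2 : g (g z) = z := h1.resolve_right fun e => hn (g.injective e)
  obtain ⟨m, hm⟩ := ho
  have h3 : ∀ k, (g ^ (2 * k)) z = z := fun k => by
    induction k with
    | zero => rfl
    | succ k ih => rw [mul_add, mul_one, pow_add, Perm.mul_apply, pow_two, Perm.mul_apply, h2, ih]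
  have h4 := congrArg (fun f : Perm α => f z) (pow_orderOf_eq_one g)
  simp only [hm, pow_succ', Perm.mul_apply, h3, Perm.one_apply] at h4
  exact hn h4

theorem FP_norm (hg : g ∈ 𝐍(P)) (hz : z ∈ FP P) : g z ∈ FP P := mem_FP.2 fun k hk => by
  have := mem_FP.1 hz _ (conj_mem_of_norm' hg hk)
  rwa [Perm.mul_apply, Perm.mul_apply, Perm.inv_eq_iff_eq] at this

theorem Fx_conj_subset (hg : g ∈ 𝐍(P)) (h : Fx u ⊆ FP P) : Fx (g * u * g⁻¹) ⊆ FP P := by
  intro z hz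
  have := FP_norm hg (h (mem_Fx_conj.1 (show g (g⁻¹ z) ∈ _ by simpa using hz)))
  simpa using this

/-- points with non-regular orbit -/
def NF (a b : Perm α) : Finset α := Fx a ∪ Fx b ∪ Fx (a * b)

theorem RT.of_not_mem (h : RT X a b i) (hz : z ∉ NF a b) : RT X a b z := by
  simp only [NF, mem_union, mem_Fx, not_or, Perm.mul_apply] at hz
  exact ⟨h.ma, h.mb, h.ha, h.hb, h.hab, hz.1.1, hz.1.2, hz.2⟩

theorem RT.not_mem (h : RT X a b i) : i ∉ NF a b := by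
  simp [NF, mem_Fx, h.na, h.nb, h.nab]

/-- the second case -/
structure Two (G : Subgroup (Perm α)) (r : ℕ) : Prop extends Hyp G where
  r2 : 2 ≤ r
  r3 : r ≤ 3
  hr : ∀ u ∈ G, u * u = 1 → u ≠ 1 → #(Fx u) = r
  mv : ∀ a b i, RT G a b i → ∃ z, a z = z ∧ b z ≠ z

variable {r : ℕ}

theorem RT.map_Fx (h : RT X a b i) (hz : z ∈ Fx a) : b z ∈ Fx a := by
  rw [mem_Fx] at hz ⊢
  rw [← h.ba, hz]

theorem Two.card_inf (H : Two G r) (h : RT G a b i) : #(Fx a ∩ Fx b) + 2 = r := by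
  have h1 := Perm.card_filter_fixed_modEq_two (Fx a) b (fun z hz => h.map_Fx hz) fun z _ => h.bb z
  rw [H.hr a h.ma h.ha h.ne_one, show (Fx a).filter (fun z => b z = z) = Fx a ∩ Fx b by
    ext z; simp [mem_Fx]] at h1
  obtain ⟨z, h2, h3⟩ := H.mv a b i h
  have h4 : #(Fx a ∩ Fx b) < #(Fx a) := card_lt_card ⟨inter_subset_left, fun hs =>
    h3 (mem_Fx.1 (mem_inter.1 (hs (mem_Fx.2 h2))).2)⟩
  rw [H.hr a h.ma h.ha h.ne_one] at h4
  have := H.r2
  have := H.r3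
  unfold Nat.ModEq at h1
  omega

theorem RT.inf_mul (h : RT X a b i) : Fx (a * b) ∩ Fx a = Fx a ∩ Fx b := by
  ext z
  simp only [mem_inter, mem_Fx, Perm.mul_apply]
  constructor
  · rintro ⟨h1, h2⟩
    exact ⟨h2, a.injective (h1.trans h2.symm)⟩
  · rintro ⟨h1, h2⟩
    exact ⟨by rw [h2, h1], h1⟩

theorem Two.card_NF (H : Two G r) (h : RT G a b i) : #(NF a b) = r + 4 := by
  have h1 := card_union_add_card_inter (Fx a) (Fx b)
  have h2 := card_union_add_card_inter (Fx a ∪ Fx b) (Fx (a * b))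
  have h3 : (Fx a ∪ Fx b) ∩ Fx (a * b) = Fx a ∩ Fx b := by
    ext z
    simp only [mem_inter, mem_union, mem_Fx, Perm.mul_apply]
    constructor
    · rintro ⟨h1 | h1, h2⟩
      · exact ⟨h1, a.injective (h2.trans h1.symm)⟩
      · exact ⟨by rwa [h1] at h2, h1⟩
    · rintro ⟨h1, h2⟩
      exact ⟨Or.inl h1, by rw [h2, h1]⟩
  have h4 := H.card_inf h
  rw [h3, H.hr _ h.mul.ma h.mul.ha h.mul.ne_one] at h2
  rw [H.hr a h.ma h.ha h.ne_one, H.hr b h.mb h.hb h.symm.ne_one] at h1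
  rw [NF]
  omega

theorem Two.Fx_eq (H : Two G r) (h : RT G a b i) (h1 : a z = z) (h2 : b z ≠ z) :
    insert z (insert (b z) (Fx a ∩ Fx b)) = Fx a := by
  refine eq_of_subset_of_card_le ?_ ?_
  · simp only [insert_subset_iff, inter_subset_left, and_true]
    exact ⟨mem_Fx.2 h1, h.map_Fx (mem_Fx.2 h1)⟩
  · rw [card_insert_of_notMem, card_insert_of_notMem, H.hr a h.ma h.ha h.ne_one, ← H.card_inf h]
    · simp [mem_Fx, h.bb, h2.symm]
    · simp [mem_Fx, h2, h2.symm]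

theorem Two.eq_of_inf (H : Two G r) (h : RT G a b i) {w : α} (hz : z ∈ Fx a ∩ Fx b)
    (hw : w ∈ Fx a ∩ Fx b) : z = w :=
  card_le_one.1 (by have := H.card_inf h; have := H.r3; omega) z hz w hw

theorem Two.fix_Fx (H : Two G r) (h : RT G a b i) (ho : Odd (orderOf g)) (ha : g * a = a * g)
    (h0 : ∀ z ∈ Fx a ∩ Fx b, g z = z) (hz : z ∈ Fx a) : g z = z := by
  by_cases h1 : z ∈ Fx a ∩ Fx b
  · exact h0 z h1
  refine fix_of_odd ho (S := Fx a \ (Fx a ∩ Fx b)) ?_ (fun w hw => ?_) (mem_sdiff.2 ⟨hz, h1⟩)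
  · rw [card_sdiff_of_subset inter_subset_left, H.hr a h.ma h.ha h.ne_one, ← H.card_inf h]
    omega
  · rw [mem_sdiff] at hw ⊢
    refine ⟨mem_Fx.2 (by rw [← Perm.mul_apply, ← ha, Perm.mul_apply, mem_Fx.1 hw.1]), fun e => ?_⟩
    rw [g.injective (h0 _ e)] at e
    exact hw.2 e

theorem Two.inf_subset_FP (H : Two G r) {p : ℕ} [Fact p.Prime] (hP : Syl p P (St G y))
    (C : Cf (G ⊓ 𝐍(P)) y x x' b s) : Fx (x * x') ∩ Fx b ⊆ FP P := by
  intro z hz
  have rt := C.rt.mono inf_le_left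
  have hza : (x * x') z = z := mem_Fx.1 (mem_inter.1 hz).1
  have hzb : b z = z := mem_Fx.1 (mem_inter.1 hz).2
  have fx : ∀ {g : Perm α}, z ∈ Fx (g⁻¹ * (x * x') * g⁻¹⁻¹) → z ∈ Fx (g⁻¹ * b * g⁻¹⁻¹) → g z = z := by
    intro g h1 h2
    refine H.eq_of_inf rt (mem_inter.2 ⟨?_, ?_⟩) hz
    · exact mem_Fx_conj.1 (show g⁻¹ (g z) ∈ _ by simpa using h1)
    · exact mem_Fx_conj.1 (show g⁻¹ (g z) ∈ _ by simpa using h2)
  have ix : x⁻¹ = x := inv_eq_of_mul_eq_one_right C.hx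
  have ix' : x'⁻¹ = x' := inv_eq_of_mul_eq_one_right C.hx'
  have hxz : x z = z := fx
    (by rw [ix, ← mul_assoc, C.hx, one_mul, ix, ← C.hxx]; exact (mem_inter.1 hz).1)
    (by rw [ix, C.xb, mem_Fx, Perm.mul_apply, hzb, hza])
  have hxz' : x' z = z := x.injective (hza.trans hxz.symm)
  have hsz : s z = z := fx
    (by rw [← C.sb, mem_Fx]; simpa [mul_assoc] using hzb)
    (by rw [← C.sa, mem_Fx]; simpa [mul_assoc] using hza)
  set Q := P ⊓ MulAction.stabilizer (Perm α) z with hQ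
  by_contra hn
  have hlt : Q < P := lt_of_le_of_ne inf_le_left fun e => hn (mem_FP.2 fun g hg =>
    (e ▸ hg : g ∈ Q).2)
  have hlt' := lt_inf_norm_of_nil hP.nil hlt
  set Q1 := P ⊓ 𝐍(Q) with hQ1
  have hN : ∀ {g}, g ∈ 𝐍(P) → g z = z → g ∈ 𝐍(Q1) := fun {g} h1 h2 => by
    refine mem_norm_inf h1 (le_norm_norm (zpowers_le.2 (mem_norm_inf h1 ?_)) (mem_zpowers g))
    exact le_norm_self _ h2
  have hyz : ∀ j, y j ≠ z := fun j e => by
    have := (C.ix.mul C.ix') j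
    rw [e, hza, ← e] at this
    exact absurd (y.injective this) ((by decide : ∀ j : Fin 4,
      ¬ j = (swap 2 3 * swap 0 1 : Perm (Fin 4)) j) j)
  have hcent : ∀ {w : Perm α} {j k : Fin 4}, w ∈ G → w * w = 1 → w ≠ 1 → j ≠ k → w (y j) = y j →
      w (y k) = y k → w z = z → Q1 ⊓ 𝐂[w] ≤ (Q1 ⊓ 𝐂[x * x']) ⊔ Q := by
    intro w j k h1 h2 h3 hjk h4 h5 h6 c hc
    refine mem_sup_right ⟨hc.1.1, ?_⟩
    by_contra hcz
    have hcy : ∀ j, c (y j) = y j := (hP.le hc.1.1).2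
    have h7 : ∀ j, y j ≠ c z := fun j e => hyz j (c.injective (by rw [hcy, e]))
    refine h3 (H.fix4 h1 h2 (a := y j) (b := y k) (c := z) (d := c z) (by
      simp [hjk, hyz, h7, Ne.symm (show c z ≠ z from hcz)]) h4 h5 h6 ?_)
    rw [← Perm.mul_apply, ← mem_cent1.1 hc.2, Perm.mul_apply, h6]
  have nx : x ≠ 1 := fun e => absurd (y.injective (e ▸ C.ix 2 :)) (by decide)
  have nx' : x' ≠ 1 := fun e => absurd (y.injective (e ▸ C.ix' 0 :)) (by decide)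
  have nxx : x ≠ x' := fun e => absurd (y.injective ((C.ix 0).symm.trans (e ▸ C.ix' 0 :)))
    (by decide)
  have hle := le_of_V4 C.hx C.hx' C.hxx nx nx' nxx (P := Q1) (K := (Q1 ⊓ 𝐂[x * x']) ⊔ Q)
    ((H.odd y).of_dvd_nat (card_dvd (inf_le_left.trans hP.le))) (hN C.mx.2 hxz) (hN C.mx'.2 hxz')
    (hcent (j := 0) (k := 1) C.mx.1 C.hx nx (by decide) (C.ix 0) (C.ix 1) hxz)
    (hcent (j := 2) (k := 3) C.mx'.1 C.hx' nx' (by decide) (C.ix' 2) (C.ix' 3) hxz') le_sup_left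
  have k1 : ∀ g ∈ Q1, g z ∈ Fx (x * x') := by
    intro g hg
    obtain ⟨c, hc, q, hq, rfl⟩ := (mem_sup_norm_right (inf_le_left.trans inf_le_right)).1 (hle hg)
    rw [mem_Fx, Perm.mul_apply c, show q z = z from hq.2, ← Perm.mul_apply, ← mem_cent1.1 hc.2,
      Perm.mul_apply, hza]
  obtain ⟨g, hg, hg'⟩ := SetLike.exists_of_lt hlt'
  refine hg' ⟨hg.1, H.eq_of_inf rt (mem_inter.2 ⟨k1 g hg, ?_⟩) hz⟩
  have := (mem_Fx_conj (g := s)).2 (k1 _ (conj_mem_of_norm' (hN C.ms.2 hsz) hg))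
  rw [C.sa] at this
  simpa [hsz] using this

theorem Two.NF_subset_FP (H : Two G r) {p : ℕ} [Fact p.Prime] (hP : Syl p P (St G y))
    (C : Cf (G ⊓ 𝐍(P)) y x x' b s) (hz : z ∈ FP P) (h1 : z ∈ NF (x * x') b)
    (h2 : z ∉ Fx (x * x') ∩ Fx b) : NF (x * x') b ⊆ FP P := by
  have h0 := H.inf_subset_FP hP C
  have key : ∀ {u v}, RT (G ⊓ 𝐍(P)) u v (y 0) → Fx u ∩ Fx v = Fx (x * x') ∩ Fx b → z ∈ Fx u →
      Fx u ⊆ FP P := by
    intro u v h e hu
    rw [← H.Fx_eq (h.mono inf_le_left) (mem_Fx.1 hu) fun e' => h2 (e ▸ mem_inter.2 ⟨hu, mem_Fx.2 e'⟩),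
      e]
    simp only [insert_subset_iff]
    exact ⟨hz, FP_norm h.mb.2 hz, h0⟩
  have k1 : Fx (x * x') ⊆ FP P → Fx b ⊆ FP P := fun h => C.sa ▸ Fx_conj_subset C.ms.2 h
  have k2 : Fx b ⊆ FP P → Fx (x * x') ⊆ FP P := fun h => C.sb ▸ Fx_conj_subset C.ms.2 h
  have k3 : Fx b ⊆ FP P → Fx (x * x' * b) ⊆ FP P := fun h => C.xb ▸ Fx_conj_subset C.mx.2 h
  have k4 : Fx (x * x' * b) ⊆ FP P → Fx b ⊆ FP P := fun h => by
    have := Fx_conj_subset (inv_mem C.mx.2) h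
    rwa [← C.xb, show x⁻¹ * (x * b * x⁻¹) * x⁻¹⁻¹ = b by group] at this
  have hb : Fx b ⊆ FP P := by
    simp only [NF, mem_union] at h1
    rcases h1 with (h1 | h1) | h1
    · exact k1 (key C.rt rfl h1)
    · exact key C.rt.symm (inter_comm _ _) h1
    · exact k4 (key C.rt.mul C.rt.inf_mul h1)
  exact union_subset (union_subset (k2 hb) hb) (k3 hb)

end Cfsg.Agent.Hall4
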